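import Cfsg.Agent.Lib.HSUnitary.Local
import Mathlib.GroupTheory.GroupAction.Quotient

/-!
Every proper subgroup of the permutation group of degree 126 and order 126000 has index at least 50.
-/

set_option autoImplicit false

namespace CfsgLib.HSUnitary

/-- The order of a 5-subgroup to look at in a group of order `h`. -/
def fiveOf (h : ℕ) : ℕ := if 125 ∣ h then 125 else if 25 ∣ h then 25 else 5

/-- A 5-subgroup rules out the order `h`. -/
def Five (h : ℕ) : Prop :=
  ∀ m < 1001, ¬ (m ∣ 1000 ∧ m ∣ h ∧ fiveOf h ∣ m ∧ h / m ≤ 126 ∧ h / m % fiveOf h = 1)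

/-- A 7-subgroup rules out the order `h`. -/
def Seven (h : ℕ) : Prop :=
  7 ∣ h ∧ ∀ k < 22, ¬ (k ∣ 21 ∧ 7 ∣ k ∧ k ∣ h ∧ h / k % 7 = 1)

instance (h : ℕ) : Decidable (Five h) := by unfold Five; infer_instance

instance (h : ℕ) : Decidable (Seven h) := by unfold Seven; infer_instance

theorem index_table : ∀ n < 50, 15 ≤ n → n ∣ 126000 →
    5 ∣ 126000 / n ∧ 1000 < 126000 / n ∧ (Five (126000 / n) ∨ Seven (126000 / n)) := by
  decide +kernel

theorem fiveOf_dvd {h : ℕ} (h5 : 5 ∣ h) : fiveOf h ∣ h ∧ ∃ a, 1 ≤ a ∧ fiveOf h = 5 ^ a := by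
  unfold fiveOf
  split_ifs with a b
  · exact ⟨a, 3, by norm_num, by norm_num⟩
  · exact ⟨b, 2, by norm_num, by norm_num⟩
  · exact ⟨h5, 1, le_rfl, by norm_num⟩

/-- A group acting freely on a finite type has order dividing its cardinality. -/
theorem card_dvd_of_free {Q S : Type*} [Group Q] [Finite S] [MulAction Q S]
    (h : ∀ (g : Q) (s : S), g • s = s → g = 1) : Nat.card Q ∣ Nat.card S := by
  refine ⟨Nat.card (Quotient (MulAction.orbitRel Q S)), ?_⟩
  have e : ∀ ω : Quotient (MulAction.orbitRel Q S),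
      (Q ⧸ MulAction.stabilizer Q ω.out) ≃ Q := fun ω => by
    rw [show MulAction.stabilizer Q ω.out = ⊥ from
      (Subgroup.eq_bot_iff_forall _).2 fun g hg => h g _ hg]
    exact QuotientGroup.quotientBot.toEquiv
  rw [Nat.card_congr ((MulAction.selfEquivSigmaOrbitsQuotientStabilizer Q S).trans
    ((Equiv.sigmaCongrRight e).trans (Equiv.sigmaEquivProd _ _))), Nat.card_prod, mul_comm]

theorem five_lemma (hc : Nat.card permGroup = 126000) (H : Subgroup permGroup)
    (h5 : 5 ∣ Nat.card H) : ∃ m < 1001, m ∣ 1000 ∧ m ∣ Nat.card H ∧ fiveOf (Nat.card H) ∣ m ∧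
      Nat.card H / m ≤ 126 ∧ Nat.card H / m % fiveOf (Nat.card H) = 1 := by
  classical
  have : Fact (Nat.Prime 5) := ⟨by norm_num⟩
  obtain ⟨hd, a, ha, hq⟩ := fiveOf_dvd h5
  rw [hq] at hd ⊢
  obtain ⟨Q, hQ⟩ := Sylow.exists_subgroup_card_pow_prime 5 hd
  have hQp : IsPGroup 5 Q := IsPGroup.of_card hQ
  obtain ⟨p, hp⟩ := hQp.nonempty_fixed_point_of_prime_not_dvd_card (Fin 126) (by simp)
  set O := MulAction.orbit H p
  have hO : O.ncard ≤ 126 := by
    simpa using Set.ncard_le_ncard (Set.subset_univ O) (Set.toFinite _)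
  set Hp := MulAction.stabilizer H p
  have key : Nat.card Hp * O.ncard = Nat.card H := by
    rw [← MulAction.index_stabilizer]; exact Hp.card_mul_index
  have hm : Nat.card Hp ∣ 1000 := by
    have e : Hp = (MulAction.stabilizer permGroup p).subgroupOf H := rfl
    rw [e, ← Subgroup.inf_subgroupOf_right,
      Nat.card_congr (Subgroup.subgroupOfEquivOfLe inf_le_right).toEquiv]
    exact card_point_stab hc p ▸ Subgroup.card_dvd_of_le inf_le_left
  have hQH : Q ≤ Hp := fun g hg => hp ⟨g, hg⟩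
  have hfree : Nat.card Q ∣ Nat.card ↥(O \ {p}) := by
    let _ : MulAction Q ↥(O \ {p}) :=
      { smul := fun g s => ⟨g • s.1, by
          refine ⟨?_, fun e => s.2.2 ?_⟩
          · obtain ⟨k, hk⟩ := s.2.1
            exact ⟨(g : H) * k, by rw [← hk]; exact mul_smul _ _ _⟩
          · exact MulAction.injective (g : H) (e.trans (hp g).symm)⟩
        one_smul := fun s => Subtype.ext (one_smul _ _)
        mul_smul := fun g k s => Subtype.ext (mul_smul _ _ _) }
    refine card_dvd_of_free fun g s hs => ?_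
    have hs' : (g : H) • s.1 = s.1 := congrArg Subtype.val hs
    let S := MulAction.stabilizer permGroup p
    let c : MulAction.stabilizer S s.1 := ⟨⟨((g : H) : permGroup), hp g⟩, hs'⟩
    have h8 : orderOf c ∣ 8 := card_pair_stab hc (Ne.symm s.2.2) ▸ orderOf_dvd_natCard c
    have hoc : orderOf c = orderOf g := by
      rw [← Subgroup.orderOf_coe, ← Subgroup.orderOf_coe, ← Subgroup.orderOf_coe g,
        ← Subgroup.orderOf_coe (g : H)]
    have hd5 : orderOf g ∣ 5 ^ a := hQ ▸ orderOf_dvd_natCard g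
    have hcop : Nat.Coprime 8 (5 ^ a) := Nat.Coprime.pow_right _ (by norm_num)
    exact orderOf_eq_one_iff.1 (Nat.eq_one_of_dvd_coprimes hcop (hoc ▸ h8) hd5)
  have hOp : Nat.card ↥(O \ {p}) + 1 = O.ncard := by
    rw [Nat.card_coe_set_eq, Set.ncard_sdiff_singleton_add_one (MulAction.mem_orbit_self p)
      (Set.toFinite _)]
  rw [hQ] at hfree
  obtain ⟨c, hc'⟩ := hfree
  have hdiv : Nat.card H / Nat.card Hp = O.ncard := by
    rw [← key, Nat.mul_div_cancel_left _ Nat.card_pos]
  refine ⟨Nat.card Hp, Nat.lt_succ_of_le (Nat.le_of_dvd (by norm_num) hm), hm, Dvd.intro _ key,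
    hQ ▸ Subgroup.card_dvd_of_le hQH, hdiv ▸ hO, ?_⟩
  rw [hdiv, ← hOp, hc', Nat.mul_add_mod]
  exact Nat.mod_eq_of_lt (Nat.one_lt_pow (by omega) (by norm_num))

theorem seven_lemma (hs : IsSimpleGroup permGroup) (hc : Nat.card permGroup = 126000)
    (H : Subgroup permGroup) (h7 : 7 ∣ Nat.card H) :
    ∃ k < 22, k ∣ 21 ∧ 7 ∣ k ∧ k ∣ Nat.card H ∧ Nat.card H / k % 7 = 1 := by
  classical
  have : Fact (Nat.Prime 7) := ⟨by norm_num⟩
  obtain ⟨P⟩ : Nonempty (Sylow 7 H) := inferInstance
  have hP7 : Nat.card (P : Subgroup H) = 7 := by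
    have h1 : Nat.card (P : Subgroup H) ∣ 126000 := hc ▸
      ((P : Subgroup H).card_subgroup_dvd_card.trans H.card_subgroup_dvd_card)
    have h2 := P.dvd_card_of_dvd_card h7
    obtain ⟨e, he⟩ := (IsPGroup.iff_card).1 P.2
    rw [he] at h1 h2 ⊢
    rcases Nat.lt_or_ge e 2 with he2 | he2
    · interval_cases e
      · norm_num at h2
      · norm_num
    · exact absurd ((pow_dvd_pow 7 he2).trans h1) (by norm_num)
  set M : Subgroup permGroup := (P : Subgroup H).map H.subtype
  have hM7 : Nat.card M = 7 :=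
    (Nat.card_congr (Subgroup.equivMapOfInjective _ _ H.subtype_injective).toEquiv).symm.trans hP7
  obtain ⟨S, hS⟩ := (IsPGroup.of_card (p := 7) (n := 1) (by rw [hM7, pow_one])).exists_le_sylow
  have hS7 : Nat.card (S : Subgroup permGroup) = 7 := by
    have hf : (126000 : ℕ).factorization 7 = 1 := by
      rw [show (126000 : ℕ) = 7 * 18000 by norm_num, Nat.factorization_mul (by norm_num) (by norm_num),
        Finsupp.add_apply, (Nat.Prime.factorization_self (by norm_num : Nat.Prime 7)),
        Nat.factorization_eq_zero_of_not_dvd (by norm_num)]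
    rw [Sylow.card_eq_multiplicity, hc, hf, pow_one]
  have hMS : M = (S : Subgroup permGroup) := Subgroup.eq_of_le_of_card_ge hS (by rw [hM7, hS7])
  set N := Subgroup.normalizer (P : Set H)
  have hN21 : Nat.card N ∣ 21 := by
    rw [← card_normalizer_seven hs hc S, ← hMS,
      Nat.card_congr (Subgroup.equivMapOfInjective N _ H.subtype_injective).toEquiv]
    exact Subgroup.card_dvd_of_le (Subgroup.le_normalizer_map _)
  have h7N : 7 ∣ Nat.card N := hP7 ▸ Subgroup.card_dvd_of_le Subgroup.le_normalizer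
  refine ⟨Nat.card N, Nat.lt_succ_of_le (Nat.le_of_dvd (by norm_num) hN21), hN21, h7N,
    N.card_subgroup_dvd_card, ?_⟩
  rw [show Nat.card H / Nat.card N = N.index by
    rw [← N.card_mul_index, Nat.mul_div_cancel_left _ Nat.card_pos], ← Sylow.card_eq_index_normalizer P]
  exact card_sylow_modEq_one 7 H

theorem fifty_le_index (hs : IsSimpleGroup permGroup) (hc : Nat.card permGroup = 126000)
    {H : Subgroup permGroup} (hH : H ≠ ⊤) : 50 ≤ H.index := by
  classical
  by_contra hlt
  push Not at hlt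
  have hmul := H.card_mul_index
  rw [hc] at hmul
  have hn0 : H.index ≠ 0 := Subgroup.index_ne_zero_of_finite
  have hdvd : H.index ∣ 126000 := Dvd.intro_left _ hmul
  by_cases h15 : H.index ≤ 14
  · have hker : (MulAction.toPermHom permGroup (permGroup ⧸ H)).ker = ⊥ := by
      rcases hs.eq_bot_or_eq_top_of_normal (MulAction.toPermHom permGroup (permGroup ⧸ H)).ker
        inferInstance with h | h
      · exact h
      · refine absurd (eq_top_iff.2 ?_) hH
        rw [← h]
        exact (Subgroup.normalCore_eq_ker H) ▸ Subgroup.normalCore_le H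
    have hd := Subgroup.card_dvd_of_injective _
      ((MulAction.toPermHom permGroup (permGroup ⧸ H)).ker_eq_bot_iff.1 hker)
    rw [hc, Nat.card_perm, ← Subgroup.index_eq_card] at hd
    have h14 : Nat.factorial H.index ∣ Nat.factorial 14 := Nat.factorial_dvd_factorial h15
    exact absurd (hd.trans h14) (by decide +kernel)
  · obtain ⟨h5, h1000, h⟩ := index_table H.index hlt (by omega) hdvd
    have he : 126000 / H.index = Nat.card H := by
      rw [← hmul, Nat.mul_div_cancel _ (Nat.pos_of_ne_zero hn0)]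
    rw [he] at h5 h1000 h
    rcases h with h | ⟨h7, h⟩
    · obtain ⟨m, hm, a, b, c, d, e⟩ := five_lemma hc H h5
      exact h m hm ⟨a, b, c, d, e⟩
    · obtain ⟨k, hk, a, b, c, d⟩ := seven_lemma hs hc H h7
      exact h k hk ⟨a, b, c, d⟩

end CfsgLib.HSUnitary
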