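import Cfsg.Agent.Lib.HSUnitary.Lattice
import Cfsg.Agent.Lib.HSUnitary.MinIndex
import Cfsg.Agent.Lib.Leech.Cert.HSUnitary50
import Cfsg.Agent.Lib.ClassicalForms.Unitary.Simple

/-!
The permutation group of degree 126 has a subgroup of index 50, the stabiliser of a lattice vector in an
orbit of length 50; with the lower bound this gives the minimal index in `PSU(3,5)`.
-/

set_option autoImplicit false

namespace CfsgLib.HSUnitary

open Cfsg CfsgLib.Leech CfsgLib.Fischer2
open scoped Pointwise

/-- A group with two elements acting like the two permutations has at least 126000 elements. -/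
theorem le_card_of_action {G X : Type*} [Group G] [Finite G] (act : G → X → X)
    (act_one : ∀ x, act 1 x = x) (act_mul : ∀ g h x, act (g * h) x = act g (act h x))
    {P : Fin 126 → X} (hP : Function.Injective P) {a b : G}
    (ha : ∀ i, act a (P i) = P (permG 0 i)) (hb : ∀ i, act b (P i) = P (permG 1 i)) :
    126000 ≤ Nat.card G := by
  let T : Subgroup (Equiv.Perm (Fin 126)) :=
    { carrier := {σ | ∃ g : G, ∀ i, act g (P i) = P (σ i)}
      one_mem' := ⟨1, fun i => act_one _⟩
      mul_mem' := by
        rintro σ τ ⟨g, hg⟩ ⟨h, hh⟩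
        exact ⟨g * h, fun i => by rw [act_mul, hh, hg]; rfl⟩
      inv_mem' := by
        rintro σ ⟨g, hg⟩
        refine ⟨g⁻¹, fun i => ?_⟩
        have h := hg (σ⁻¹ i)
        rw [← Equiv.Perm.mul_apply, mul_inv_cancel, Equiv.Perm.one_apply] at h
        rw [← h, ← act_mul, inv_mul_cancel, act_one] }
  have hle : permGroup ≤ T := by
    rw [permGroup, Subgroup.closure_le]
    intro σ hσ
    rcases hσ with h | h
    · exact ⟨a, fun i => by rw [h]; exact ha i⟩
    · exact ⟨b, fun i => by rw [Set.mem_singleton_iff.1 h]; exact hb i⟩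
  refine le_card_permGroup.trans ((Subgroup.card_le_of_le hle).trans
    (Nat.card_le_card_of_injective (fun σ : T => σ.2.choose) fun σ τ h => Subtype.ext ?_))
  refine Equiv.ext fun i => hP ?_
  rw [← σ.2.choose_spec i, ← τ.2.choose_spec i]
  exact congrArg (fun g => act g (P i)) h

theorem exists_index_transfer {A B C : Type*} [Group A] [Group B] [Group C] (e₁ : A ≃* B)
    (e₂ : C ≃* B) {K : Subgroup A} {n : ℕ} (hK : K.index = n) : ∃ L : Subgroup C, L.index = n :=
  ⟨K.map (e₁.trans e₂.symm).toMonoidHom, by
    rw [Subgroup.index_map_of_bijective (e₁.trans e₂.symm).bijective K, hK]⟩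

theorem fifty_mem : ∀ i < 50, memTest (Data.fifty.getD i []) = true := by decide +kernel

theorem fifty_nodup : ((List.range 50).map fun i => keyL (Data.fifty.getD i [])).Nodup := by
  decide +kernel

theorem fifty_step : ∀ k < 2, ∀ i < 50, (Data.fiftyImg.getD k []).getD i 0 < 50 ∧
    mapOk ([Data.matA, Data.matB].getD k []) (Data.fifty.getD i [])
      (Data.fifty.getD ((Data.fiftyImg.getD k []).getD i 0) []) = true := by
  decide +kernel

theorem fiftyTree_ok : ∀ i < 50, i ≠ 0 → Data.fiftyTree.getD i 0 / 2 < i ∧
    (Data.fiftyImg.getD (Data.fiftyTree.getD i 0 % 2) []).getD (Data.fiftyTree.getD i 0 / 2) 0 = i := by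
  decide +kernel

/-- A vector of the orbit. -/
def fiftyVec (i : Fin 50) : leechLattice := ofList (Data.fifty.getD i.1 []) (fifty_mem i.1 i.2)

theorem fiftyVec_injective : Function.Injective fiftyVec := by
  intro i j h
  have hlen : ∀ {L : List ℤ}, memTest L = true → L.length = 24 := fun hL => by
    simp only [memTest, Bool.and_eq_true, decide_eq_true_eq] at hL; exact hL.1
  have := toVec_inj (hlen (fifty_mem i.1 i.2)) (hlen (fifty_mem j.1 j.2)) (congrArg Subtype.val h)
  exact Fin.ext (List.inj_on_of_nodup_map fifty_nodup (List.mem_range.2 i.2) (List.mem_range.2 j.2)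
    (congrArg keyL this))

theorem exists_index_fifty_stab :
    ∃ K : Subgroup (stab352 base48 baseH hsRoot), K.index = 50 := by
  classical
  have : Finite Co0 := CfsgLib.Leech.finite_Co0
  set S := stab352 base48 baseH hsRoot
  have hH : sqNorm (coordVec baseH) = 48 ∧ dotInt (coordVec base48) (coordVec baseH) = -32 := by
    rw [baseH, coordVec_ofList, ← toVec_list48]; decide +kernel
  have hc : Nat.card S = 126000 :=
    card_stab352 sqNorm_base48 hH.1 hH.2 ncard_classHS hsRoot_mem
      fun y hy => transitive_classHS hsRoot_mem hy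
  let a : S := ⟨_, mat_mem (by simp) okA⟩
  let b : S := ⟨_, mat_mem (by simp) okB⟩
  set C := Subgroup.closure ({a, b} : Set S)
  have hC : C = ⊤ := by
    refine Subgroup.eq_top_of_card_eq _ (le_antisymm (Nat.card_le_card_of_injective _ C.subtype_injective) ?_)
    rw [hc]
    refine le_card_of_action (G := C) (fun g T => ((g.1 : S).1 • ·) '' T) (fun T => by simp)
      (fun g h T => by rw [Set.image_image]; exact Set.image_congr' fun x => mul_smul _ _ _)
      pairSet_injective (a := ⟨a, Subgroup.subset_closure (Or.inl rfl)⟩)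
      (b := ⟨b, Subgroup.subset_closure (Or.inr rfl)⟩)
      (fun i => smul_pairSet (k := 0) (by norm_num) okA i)
      (fun i => smul_pairSet (k := 1) (by norm_num) okB i)
  have hstep : ∀ (k : ℕ) (hk : k < 2) (h : matOk ([Data.matA, Data.matB].getD k []) = true)
      (i : Fin 50), matAut _ h • fiftyVec i =
        fiftyVec ⟨(Data.fiftyImg.getD k []).getD i.1 0, (fifty_step k hk i.1 i.2).1⟩ :=
    fun k hk h i => smul_ofList h _ (fifty_mem _ (fifty_step k hk i.1 i.2).1) (fifty_step k hk i.1 i.2).2
  let v₀ : Fin 50 := 0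
  have hreach : ∀ (i : ℕ) (hi : i < 50), fiftyVec ⟨i, hi⟩ ∈ MulAction.orbit S (fiftyVec v₀) := by
    intro i
    induction i using Nat.strong_induction_on with
    | _ i ih =>
      intro hi
      by_cases h0 : i = 0
      · subst h0; exact MulAction.mem_orbit_self _
      obtain ⟨h1, h2⟩ := fiftyTree_ok i hi h0
      obtain ⟨g, hg⟩ := ih _ h1 (h1.trans hi)
      rcases Nat.mod_two_eq_zero_or_one (Data.fiftyTree.getD i 0) with hm | hm <;> rw [hm] at h2
      · refine ⟨a * g, ?_⟩
        show (a * g) • fiftyVec v₀ = _
        rw [mul_smul]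
        refine (congrArg (a • ·) hg).trans ((hstep 0 (by norm_num) okA _).trans ?_)
        exact congrArg fiftyVec (Fin.ext h2)
      · refine ⟨b * g, ?_⟩
        show (b * g) • fiftyVec v₀ = _
        rw [mul_smul]
        refine (congrArg (b • ·) hg).trans ((hstep 1 (by norm_num) okB _).trans ?_)
        exact congrArg fiftyVec (Fin.ext h2)
  have hinv : ∀ g : S, ∀ i, (g : Co0) • fiftyVec i ∈ Set.range fiftyVec := by
    intro g
    have hg : g ∈ C := hC ▸ Subgroup.mem_top g
    induction hg using Subgroup.closure_induction with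
    | mem x hx =>
      intro i
      rcases hx with rfl | hx
      · exact ⟨_, (hstep 0 (by norm_num) okA i).symm⟩
      · rw [Set.mem_singleton_iff] at hx; subst hx
        exact ⟨_, (hstep 1 (by norm_num) okB i).symm⟩
    | one => intro i; exact ⟨i, by simp⟩
    | mul x y _ _ hx hy =>
      intro i
      obtain ⟨j, hj⟩ := hy i
      rw [Subgroup.coe_mul, mul_smul, ← hj]
      exact hx j
    | inv x _ hx =>
      intro i
      choose f hf using hx
      have hinj : Function.Injective f := fun p q h => fiftyVec_injective (MulAction.injective (x : Co0)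
        ((hf p).symm.trans ((congrArg fiftyVec h).trans (hf q))))
      obtain ⟨j, rfl⟩ := Finite.injective_iff_surjective.1 hinj i
      exact ⟨j, by rw [hf, Subgroup.coe_inv, inv_smul_smul]⟩
  refine ⟨MulAction.stabilizer S (fiftyVec v₀), ?_⟩
  rw [MulAction.index_stabilizer, show MulAction.orbit S (fiftyVec v₀) = Set.range fiftyVec from ?_,
    Set.ncard_range_of_injective fiftyVec_injective, Nat.card_fin]
  ext y
  constructor
  · rintro ⟨g, rfl⟩; exact hinv g v₀
  · rintro ⟨i, rfl⟩; exact hreach i.1 i.2

/-- The minimal index in `PSU(3,5)`. -/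
theorem psu35_min_index {F : Type*} [Field F] [Fintype F] (hF : Fintype.card F = 25) :
    (∀ H : Subgroup (Cfsg.PSU 3 F 5), H ≠ ⊤ → 50 ≤ H.index) ∧
      ∃ H : Subgroup (Cfsg.PSU 3 F 5), H.index = 50 := by
  obtain ⟨e⟩ := nonempty_psu_equiv_permGroup hF
  have hc : Nat.card permGroup = 126000 := by
    rw [← Nat.card_congr e.toEquiv]
    exact card_psu35 (by rw [Nat.card_eq_fintype_card, hF])
  have hs : IsSimpleGroup permGroup := by
    have h := CfsgLib.ClassicalForms.isSimpleGroup_psu (F := F) (q := 5) (n := 3)
      (by rw [hF]; norm_num) le_rfl (by norm_num)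
    have : Nontrivial permGroup := Finite.one_lt_card_iff_nontrivial.1 (by rw [hc]; norm_num)
    exact IsSimpleGroup.isSimpleGroup_of_surjective e.toMonoidHom e.surjective
  refine ⟨fun H hH => ?_, ?_⟩
  · have hne : H.map e.toMonoidHom ≠ ⊤ := fun h => hH (Subgroup.map_injective e.injective
      (h.trans (Subgroup.map_top_of_surjective e.toMonoidHom e.surjective).symm))
    have := fifty_le_index hs hc hne
    rwa [show (H.map e.toMonoidHom).index = H.index from Subgroup.index_map_equiv H e] at this
  · obtain ⟨K, hK⟩ := exists_index_fifty_stab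
    obtain ⟨e'⟩ := nonempty_base_equiv
    exact exists_index_transfer e' e hK

end CfsgLib.HSUnitary
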