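import Cfsg.Agent.Lib.HSUnitary.Unitary
import Cfsg.Agent.Lib.Leech.Classes
import Cfsg.Agent.Lib.GolayStructure.ConwaySimple

/-!
The stabiliser of one of the 352 vectors in the Higman-Sims group is isomorphic to `PSU(3,5)`: it acts
on 126 pairs of lattice vectors like `PSU(3,5)` on its isotropic points.
-/

set_option autoImplicit false

namespace CfsgLib.HSUnitary

open Cfsg CfsgLib.Leech CfsgLib.Mathieu CfsgLib.Mathieu.GraphAut CfsgLib.Fischer2
open scoped Pointwise

/-- The image of a list under a matrix equals eight times another list. -/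
def mapOk (M : List (List ℤ)) (L L' : List ℤ) : Bool := decide (applyM M L = L'.map (8 * ·))

theorem smul_ofList {M : List (List ℤ)} (h : matOk M = true) {L L' : List ℤ} (hL : memTest L = true)
    (hL' : memTest L' = true) (hmap : mapOk M L L' = true) :
    matAut M h • ofList L hL = ofList L' hL' := by
  have hM := h
  simp only [matOk, Bool.and_eq_true, List.all_eq_true, decide_eq_true_eq] at hM
  have ha : applyM M L = L'.map (8 * ·) := of_decide_eq_true hmap
  have hl : L.length = 24 := by
    simp only [memTest, Bool.and_eq_true, decide_eq_true_eq] at hL; exact hL.1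
  have hl' : L'.length = 24 := by
    simp only [memTest, Bool.and_eq_true, decide_eq_true_eq] at hL'; exact hL'.1
  apply Subtype.ext
  show matAct M (toVec L) = toVec L'
  funext p
  rw [matAct, matApply_toVec hM.1.1.1 hM.1.1.2 hl, ha, toVec, toVec,
    List.getD_eq_getElem _ _ (by simp [hl', CfsgLib.Golay.idx_lt]),
    List.getD_eq_getElem _ _ (by simp [hl', CfsgLib.Golay.idx_lt]), List.getElem_map]
  omega

/-- A stored vector. -/
def pairFst (i : ℕ) : List ℤ := Data.vecs.getD i []

/-- Its partner. -/
def pairSnd (i : ℕ) : List ℤ := List.zipWith (fun u a => -(u + a)) list48 (pairFst i)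

theorem pair_mem : ∀ i < 126, memTest (pairFst i) = true ∧ memTest (pairSnd i) = true := by
  decide +kernel

theorem pairs_nodup :
    (((List.range 126).map fun i => keyL (pairFst i)) ++
      (List.range 126).map fun i => keyL (pairSnd i)).Nodup := by
  decide +kernel

/-- A stored vector in the lattice. -/
def fstVec (i : Fin 126) : leechLattice := ofList (pairFst i) (pair_mem i.1 i.2).1

/-- The pair of a stored vector. -/
def pairSet (i : Fin 126) : Set leechLattice := {fstVec i, -(base48 + fstVec i)}

theorem sndVec_eq (i : Fin 126) :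
    ofList (pairSnd i) (pair_mem i.1 i.2).2 = -(base48 + fstVec i) := by
  apply Subtype.ext
  show toVec (pairSnd i) = -(coordVec base48 + toVec (pairFst i))
  rw [← toVec_list48]
  have hl : (pairFst i).length = 24 := by
    have := (pair_mem i.1 i.2).1
    simp only [memTest, Bool.and_eq_true, decide_eq_true_eq] at this; exact this.1
  have h48 : list48.length = 24 := by decide +kernel
  funext p
  simp only [toVec, Pi.neg_apply, Pi.add_apply, pairSnd]
  rw [List.getD_eq_getElem _ _ (by simp [hl, h48, CfsgLib.Golay.idx_lt]),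
    List.getD_eq_getElem _ _ (by simp [h48, CfsgLib.Golay.idx_lt]),
    List.getD_eq_getElem _ _ (by simp [hl, CfsgLib.Golay.idx_lt]), List.getElem_zipWith]

theorem toVec_inj {L L' : List ℤ} (hl : L.length = 24) (hl' : L'.length = 24)
    (h : toVec L = toVec L') : L = L' := by
  refine List.ext_getElem (hl.trans hl'.symm) fun i h1 h2 => ?_
  have := congrFun h (CfsgLib.Golay.pt i)
  simp only [toVec, CfsgLib.Golay.idx_pt (hl ▸ h1)] at this
  rwa [List.getD_eq_getElem _ _ h1, List.getD_eq_getElem _ _ h2] at this

theorem pairSet_injective : Function.Injective pairSet := by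
  intro i j h
  have hi : fstVec i ∈ pairSet j := by rw [← h]; exact Or.inl rfl
  have hlen : ∀ {L : List ℤ}, memTest L = true → L.length = 24 := fun hL => by
    simp only [memTest, Bool.and_eq_true, decide_eq_true_eq] at hL; exact hL.1
  have hnd := List.nodup_append.1 pairs_nodup
  rcases hi with hi | hi
  · have := toVec_inj (hlen (pair_mem i.1 i.2).1) (hlen (pair_mem j.1 j.2).1) (congrArg Subtype.val hi)
    exact Fin.ext (List.inj_on_of_nodup_map hnd.1 (List.mem_range.2 i.2) (List.mem_range.2 j.2)
      (congrArg keyL this))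
  · rw [Set.mem_singleton_iff, ← sndVec_eq] at hi
    have := toVec_inj (hlen (pair_mem i.1 i.2).1) (hlen (pair_mem j.1 j.2).2) (congrArg Subtype.val hi)
    exact (hnd.2.2 _ (List.mem_map.2 ⟨i.1, List.mem_range.2 i.2, rfl⟩) _
      (List.mem_map.2 ⟨j.1, List.mem_range.2 j.2, rfl⟩) (congrArg keyL this)).elim

/-- The stabiliser of the standard pair and of a vector of the class of 352. -/
def stab352 (u h x : leechLattice) : Subgroup Co0 :=
  MulAction.stabilizer Co0 u ⊓ MulAction.stabilizer Co0 h ⊓ MulAction.stabilizer Co0 x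

/-- The class of 352 vectors. -/
theorem neg_mem_class352 {y : leechLattice} :
    -y ∈ dotSet2 base48 baseX (-16) (-8) ↔ y ∈ dotSet2 base48 baseH 16 (-24) := by
  simp only [dotSet2, Set.mem_ofPred_eq, baseH_eq, coordVec, AddSubgroup.coe_neg,
    AddSubgroup.coe_add]
  rw [dotInt_neg_right, dotInt_neg_right,
    dotInt_comm' (-((base48 : GolayPt → ℤ) + (baseX : GolayPt → ℤ))) (y : GolayPt → ℤ),
    dotInt_neg_right, dotInt_add_right, dotInt_comm' (y : GolayPt → ℤ),
    dotInt_comm' (y : GolayPt → ℤ)]
  have e : sqNorm (-(y : GolayPt → ℤ)) = sqNorm (y : GolayPt → ℤ) := by simp [sqNorm]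
  rw [e]
  constructor <;> rintro ⟨a, b, c⟩ <;> refine ⟨a, ?_, ?_⟩ <;> omega

theorem ncard_classHS : (dotSet2 base48 baseH 16 (-24)).ncard = 352 := by
  rw [← ncard_class352, ← Set.ncard_image_of_injective _ neg_injective]
  congr 1
  ext y
  constructor
  · rintro ⟨z, hz, rfl⟩; exact neg_mem_class352.2 hz
  · intro hy; exact ⟨-y, neg_mem_class352.1 (by rwa [neg_neg]), neg_neg y⟩

theorem transitive_classHS {x x' : leechLattice} (hx : x ∈ dotSet2 base48 baseH 16 (-24))
    (hx' : x' ∈ dotSet2 base48 baseH 16 (-24)) :
    ∃ k : Co0, k • base48 = base48 ∧ k • baseH = baseH ∧ k • x = x' := by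
  obtain ⟨k, hk, e⟩ := transitive_class352 _ (neg_mem_class352.2 hx) _ (neg_mem_class352.2 hx')
  have h1 := hk base48 (by simp)
  refine ⟨k, h1, ?_, ?_⟩
  · rw [baseH_eq, smul_neg_co0, smul_add_co0, h1, hk baseX (by simp)]
  · rw [smul_neg_co0] at e; exact neg_injective e

/-- The chosen vector of the class. -/
def hsRoot : leechLattice := -classRoot352

theorem hsRoot_mem : hsRoot ∈ dotSet2 base48 baseH 16 (-24) := by
  rw [← neg_mem_class352, hsRoot, neg_neg]; exact classRoot352_mem

theorem okA : matOk Data.matA = true := by decide +kernel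
theorem okB : matOk Data.matB = true := by decide +kernel

theorem fix_ok : ∀ M ∈ [Data.matA, Data.matB],
    fixOk M list48 = true ∧ fixOk M Cert.listH = true ∧ fixOk M Cert.Orb352.root = true := by
  decide +kernel

theorem mat_mem {M : List (List ℤ)} (hM : M ∈ [Data.matA, Data.matB]) (h : matOk M = true) :
    matAut M h ∈ stab352 base48 baseH hsRoot := by
  obtain ⟨f1, f2, f3⟩ := fix_ok M hM
  refine ⟨⟨?_, ?_⟩, ?_⟩
  · exact matAut_fixes h f1 toVec_list48
  · exact matAut_fixes h f2 rfl
  · show matAut M h • hsRoot = hsRoot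
    rw [hsRoot, smul_neg_co0]
    exact congrArg Neg.neg (matAut_fixes h f3 rfl)

theorem step_ok_lattice : ∀ k < 2, ∀ i < 126,
    mapOk ([Data.matA, Data.matB].getD k []) (pairFst i)
        (pairFst (app7 (Data.codes.getD k 0) i)) = true ∨
      mapOk ([Data.matA, Data.matB].getD k []) (pairFst i)
        (pairSnd (app7 (Data.codes.getD k 0) i)) = true := by
  decide +kernel

theorem smul_pairSet {k : ℕ} (hk : k < 2) (h : matOk ([Data.matA, Data.matB].getD k []) = true)
    (i : Fin 126) :
    (matAut _ h • ·) '' pairSet i = pairSet (permG k i) := by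
  set g := matAut _ h
  have hu : g • base48 = base48 := by
    refine matAut_fixes h (fix_ok _ ?_).1 toVec_list48
    interval_cases k <;> simp
  have hg : g • fstVec i = fstVec (permG k i) ∨ g • fstVec i = -(base48 + fstVec (permG k i)) := by
    have hp := permG_apply hk i
    rcases step_ok_lattice k hk i.1 i.2 with e | e <;> rw [← hp] at e
    · exact Or.inl (smul_ofList h _ (pair_mem _ (permG k i).2).1 e)
    · right
      rw [← sndVec_eq]
      exact smul_ofList h _ (pair_mem _ (permG k i).2).2 e
  rw [pairSet, Set.image_pair, smul_neg_co0, smul_add_co0, hu]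
  rcases hg with e | e <;> rw [e]
  · rfl
  · rw [show -(base48 + -(base48 + fstVec (permG k i))) = fstVec (permG k i) by abel]
    exact Set.pair_comm _ _

theorem card_stab352 {v w x : leechLattice} (hv : sqNorm (coordVec v) = 48)
    (hw : sqNorm (coordVec w) = 48) (hvw : dotInt (coordVec v) (coordVec w) = -32)
    (hcard : (dotSet2 v w 16 (-24)).ncard = 352) (hx : x ∈ dotSet2 v w 16 (-24))
    (htr : ∀ y ∈ dotSet2 v w 16 (-24), ∃ g : Co0, g • v = v ∧ g • w = w ∧ g • x = y) :
    Nat.card (stab352 v w x) = 126000 := by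
  have hHS := (CfsgLib.GolayStructure.hs_simple_order hv hw hvw).2
  set K := MulAction.stabilizer Co0 v ⊓ MulAction.stabilizer Co0 w
  have horb : MulAction.orbit K x = dotSet2 v w 16 (-24) := by
    ext y
    constructor
    · rintro ⟨⟨g, hgv, hgw⟩, rfl⟩
      have := (smul_mem_dotSet2 (g := g)).2 hx
      rwa [MulAction.mem_stabilizer_iff.1 hgv, MulAction.mem_stabilizer_iff.1 hgw] at this
    · intro hy
      obtain ⟨g, a, b, c⟩ := htr y hy
      exact ⟨⟨g, a, b⟩, c⟩
  have key := (MulAction.stabilizer K x).card_mul_index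
  rw [MulAction.index_stabilizer, horb, hcard, hHS] at key
  have e : Nat.card (MulAction.stabilizer K x) = Nat.card (stab352 v w x) := by
    rw [show MulAction.stabilizer K x = (stab352 v w x).subgroupOf K by
      ext g
      constructor
      · intro hg; exact ⟨g.2, hg⟩
      · intro hg; exact hg.2]
    exact Nat.card_congr (Subgroup.subgroupOfEquivOfLe inf_le_left).toEquiv
  omega

theorem nonempty_base_equiv : Nonempty (stab352 base48 baseH hsRoot ≃* permGroup) := by
  have hH : sqNorm (coordVec baseH) = 48 ∧ dotInt (coordVec base48) (coordVec baseH) = -32 := by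
    rw [baseH, coordVec_ofList, ← toVec_list48]; decide +kernel
  have hc := card_stab352 sqNorm_base48 hH.1 hH.2 ncard_classHS hsRoot_mem
    fun y hy => transitive_classHS hsRoot_mem hy
  have : Finite Co0 := CfsgLib.Leech.finite_Co0
  have hq : Nat.card (stab352 base48 baseH hsRoot ⧸ (⊥ : Subgroup (stab352 base48 baseH hsRoot))) =
      126000 := by
    rw [← hc]; exact Nat.card_congr QuotientGroup.quotientBot.toEquiv
  obtain ⟨e⟩ := nonempty_equiv_permGroup (G := stab352 base48 baseH hsRoot)
    (fun g S => ((g : Co0) • ·) '' S) (fun S => by simp)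
    (fun g h S => by rw [Set.image_image]; exact Set.image_congr' fun x => mul_smul _ _ _)
    pairSet_injective (a := ⟨_, mat_mem (by simp) okA⟩) (b := ⟨_, mat_mem (by simp) okB⟩)
    (fun i => smul_pairSet (k := 0) (by norm_num) okA i)
    (fun i => smul_pairSet (k := 1) (by norm_num) okB i) ⊥
    (fun z hz i => by
      rw [Subgroup.mem_bot] at hz
      subst hz
      simp) hq
  exact ⟨QuotientGroup.quotientBot.symm.trans e⟩

/-- Transport of the stabiliser along an element of the lattice group. -/
theorem nonempty_stab_conj (g : Co0) (v w x : leechLattice) :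
    Nonempty (stab352 (g • v) (g • w) (g • x) ≃* stab352 v w x) := by
  have e : stab352 (g • v) (g • w) (g • x) =
      (stab352 v w x).map (MulAut.conj g).toMonoidHom := by
    ext k
    rw [Subgroup.mem_map_equiv]
    simp only [stab352, Subgroup.mem_inf, MulAction.mem_stabilizer_iff, MulAut.conj_symm_apply,
      mul_smul]
    simp only [inv_smul_eq_iff]
  exact ⟨(MulEquiv.subgroupCongr e).trans (MulEquiv.subgroupMap (MulAut.conj g) _).symm⟩

end CfsgLib.HSUnitary
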