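import Cfsg.Agent.Lib.HSUnitary.Perm
import Mathlib.GroupTheory.Perm.Cycle.Type
import Mathlib.GroupTheory.Sylow
import Mathlib.GroupTheory.Subgroup.Simple

/-!
Local structure of the permutation group of degree 126 and order 126000: it is two-transitive, the
non-trivial elements fixing two points fix at most six, and Sylow 7-normalisers have order 21.
-/

set_option autoImplicit false

namespace CfsgLib.HSUnitary

open CfsgLib.Mathieu CfsgLib.Mathieu.GraphAut

theorem fix_count_ok : ∀ k < 8, k ≠ 0 →
    ((List.range 126).filter fun x => (word7 Data.codes Data.wordE)^[k] x == x).length ≤ 6 := by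
  decide +kernel

theorem pointQ_ne : pointQ ≠ 0 := by decide +kernel

theorem exists_pair_move {p q : Fin 126} (hpq : p ≠ q) :
    ∃ g ∈ permGroup, g 0 = p ∧ g pointQ = q := by
  obtain ⟨g, hg, e⟩ := exists_move p.1 p.2
  have e' : g 0 = p := e
  have hq : (g⁻¹ q).1 ≠ 0 := fun h => hpq (by
    rw [← e', show (0 : Fin 126) = g⁻¹ q from Fin.ext h.symm]; simp)
  obtain ⟨j, hj, ej⟩ := List.getElem_of_mem (order2_ok.2.2 _ (g⁻¹ q).2 hq)
  obtain ⟨k, hk, k0, k1⟩ := exists_move2 j (order2_ok.1 ▸ hj)
  refine ⟨g * k, mul_mem hg hk, by rw [Equiv.Perm.mul_apply, k0, e'], ?_⟩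
  rw [Equiv.Perm.mul_apply, k1, show (⟨Data.order2.getD j 0, _⟩ : Fin 126) = g⁻¹ q from
    Fin.ext (by show Data.order2.getD j 0 = _; rw [List.getD_eq_getElem _ _ hj, ej])]
  simp

theorem exists_fix_of_mem {p : Fin 126} : ∃ g ∈ permGroup, g 0 = p := exists_move p.1 p.2

variable (hc : Nat.card permGroup = 126000)

include hc in
theorem card_point_stab (p : Fin 126) : Nat.card (MulAction.stabilizer permGroup p) = 1000 := by
  have key := (MulAction.stabilizer permGroup p).card_mul_index
  have horb : (MulAction.orbit permGroup p).ncard = 126 := by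
    rw [show MulAction.orbit permGroup p = Set.univ from Set.eq_univ_of_forall fun i => by
      obtain ⟨g, hg, e⟩ := exists_fix_of_mem (p := p)
      obtain ⟨k, hk, e'⟩ := exists_fix_of_mem (p := i)
      refine ⟨⟨k * g⁻¹, mul_mem hk (inv_mem hg)⟩, ?_⟩
      show (k * g⁻¹) p = i
      rw [← e]; simpa using e', Set.ncard_univ, Nat.card_fin]
  rw [MulAction.index_stabilizer, horb, hc] at key
  omega

include hc in
theorem card_pair_stab {p q : Fin 126} (hpq : p ≠ q) :
    Nat.card (MulAction.stabilizer (MulAction.stabilizer permGroup p) q) = 8 := by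
  set S := MulAction.stabilizer permGroup p
  have key := (MulAction.stabilizer S q).card_mul_index
  have horb : (MulAction.orbit S q).ncard = 125 := by
    rw [show MulAction.orbit S q = ({p} : Set (Fin 126))ᶜ by
      ext i
      constructor
      · rintro ⟨⟨⟨g, hg⟩, hgp⟩, rfl⟩ h
        exact hpq.symm (g.injective (h.trans (hgp : g p = p).symm))
      · intro hi
        obtain ⟨g, hg, g0, g1⟩ := exists_pair_move hpq
        obtain ⟨k, hk, k0, k1⟩ := exists_pair_move (Ne.symm hi : p ≠ i)
        refine ⟨⟨⟨k * g⁻¹, mul_mem hk (inv_mem hg)⟩, ?_⟩, ?_⟩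
        · show (k * g⁻¹) p = p
          rw [Equiv.Perm.mul_apply, show g⁻¹ p = 0 by rw [← g0]; simp, k0]
        · show (k * g⁻¹) q = i
          rw [Equiv.Perm.mul_apply, show g⁻¹ q = pointQ by rw [← g1]; simp, k1],
      Set.ncard_compl, Set.ncard_singleton, Nat.card_fin]
  rw [MulAction.index_stabilizer, horb, card_point_stab hc p] at key
  omega

include hc in
theorem fixed_le_six {p q : Fin 126} (hpq : p ≠ q) {c : Equiv.Perm (Fin 126)} (hcG : c ∈ permGroup)
    (hp : c p = p) (hq : c q = q) (h1 : c ≠ 1) :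
    (Finset.univ.filter fun x => c x = x).card ≤ 6 := by
  classical
  obtain ⟨g, hg, g0, g1⟩ := exists_pair_move hpq
  set d := g⁻¹ * c * g with hd
  have hdG : d ∈ permGroup := mul_mem (mul_mem (inv_mem hg) hcG) hg
  have hv : wordValid Data.codes Data.wordE = true := words_valid _ (by simp)
  set E := wordElt Data.wordE with hE
  have d0 : d 0 = 0 := by
    rw [hd, Equiv.Perm.mul_apply, Equiv.Perm.mul_apply, g0, hp, ← g0]; simp
  have d1 : d pointQ = pointQ := by
    rw [hd, Equiv.Perm.mul_apply, Equiv.Perm.mul_apply, g1, hq, ← g1]; simp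
  set T := MulAction.stabilizer (MulAction.stabilizer permGroup (0 : Fin 126)) pointQ
  let e1 : MulAction.stabilizer permGroup (0 : Fin 126) :=
    ⟨⟨E, wordElt_mem hv⟩, Fin.ext ((wordElt_apply hv 0).trans words_fix.2.2.1)⟩
  let eT : T := ⟨e1, Fin.ext ((wordElt_apply hv pointQ).trans words_fix.2.2.2)⟩
  have ho : orderOf eT = 8 := by
    rw [← Subgroup.orderOf_coe, ← Subgroup.orderOf_coe, ← Subgroup.orderOf_coe]; exact wordE_order
  have htop : Subgroup.zpowers eT = ⊤ := Subgroup.eq_top_of_card_eq _ (by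
    rw [Nat.card_zpowers, ho, card_pair_stab hc (Ne.symm pointQ_ne)])
  have hmem : (⟨⟨⟨d, hdG⟩, d0⟩, d1⟩ : T) ∈ Subgroup.zpowers eT := htop ▸ Subgroup.mem_top _
  obtain ⟨k, hk⟩ := (IsOfFinOrder.mem_powers_iff_mem_zpowers (isOfFinOrder_of_finite eT)).2 hmem
  have hdk : d = E ^ (k % 8) := by
    have hk' : eT ^ (k % 8) = ⟨⟨⟨d, hdG⟩, d0⟩, d1⟩ := by
      conv_rhs => rw [← hk]
      rw [← ho, pow_mod_orderOf]
    have := congrArg (fun t : T => ((t.1.1 : permGroup) : Equiv.Perm (Fin 126))) hk'
    simpa [eT, e1] using this.symm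
  have hk0 : k % 8 ≠ 0 := fun h => h1 (by
    rw [h, pow_zero] at hdk
    calc c = g * d * g⁻¹ := by rw [hd]; group
      _ = 1 := by rw [hdk]; simp)
  have hpow : ∀ (m : ℕ) (x : Fin 126),
      ((E ^ m) x : ℕ) = (word7 Data.codes Data.wordE)^[m] x.1 := by
    intro m
    induction m with
    | zero => intro x; rfl
    | succ m ih =>
      intro x
      rw [pow_succ', Equiv.Perm.mul_apply, hE, wordElt_apply hv, ← hE, ih,
        Function.iterate_succ_apply']
  refine le_trans ?_ (fix_count_ok (k % 8) (Nat.mod_lt _ (by norm_num)) hk0)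
  rw [← List.toFinset_card_of_nodup (List.nodup_range.filter _)]
  refine Finset.card_le_card_of_injOn (fun x => (g⁻¹ x : Fin 126).1) (fun x hx => ?_)
    fun x _ y _ h => g⁻¹.injective (Fin.ext h)
  simp only [Finset.coe_filter, Finset.mem_univ, true_and, Set.mem_ofPred_eq] at hx
  simp only [Finset.mem_coe, List.mem_toFinset, List.mem_filter, List.mem_range, beq_iff_eq]
  refine ⟨Fin.is_lt _, ?_⟩
  rw [← hpow, ← hdk]
  congr 1
  rw [hd, Equiv.Perm.mul_apply, Equiv.Perm.mul_apply]
  simp [hx]

theorem sign_eq_one (hs : IsSimpleGroup permGroup) (hc : Nat.card permGroup = 126000)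
    (g : permGroup) : Equiv.Perm.sign (g : Equiv.Perm (Fin 126)) = 1 := by
  let f : permGroup →* ℤˣ := Equiv.Perm.sign.comp permGroup.subtype
  rcases hs.eq_bot_or_eq_top_of_normal f.ker inferInstance with h | h
  · have := Nat.card_le_card_of_injective f (f.ker_eq_bot_iff.1 h)
    rw [hc, Nat.card_eq_fintype_card, Fintype.card_units_int] at this
    omega
  · exact MonoidHom.mem_ker.1 (h ▸ Subgroup.mem_top g : g ∈ f.ker)

theorem exists_fixed_of_two (hs : IsSimpleGroup permGroup) (hc : Nat.card permGroup = 126000)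
    {t : permGroup} (ht : orderOf t = 2) : ∃ p : Fin 126, (t : Equiv.Perm (Fin 126)) p = p := by
  classical
  by_contra hno
  push Not at hno
  set σ := (t : Equiv.Perm (Fin 126)) with hσ
  have ho : orderOf σ = 2 := (Subgroup.orderOf_coe t).trans ht
  have hsupp : σ.support.card = 126 := by
    rw [show σ.support = Finset.univ from Finset.eq_univ_of_forall fun p =>
      Equiv.Perm.mem_support.2 (hno p)]
    simp
  obtain ⟨n, hn⟩ := Equiv.Perm.cycleType_prime_order (ho.symm ▸ Nat.prime_two)
  rw [ho] at hn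
  have hsum := Equiv.Perm.sum_cycleType σ
  rw [hn, hsupp, Multiset.sum_replicate, smul_eq_mul] at hsum
  have hsign := sign_eq_one hs hc t
  rw [← hσ, Equiv.Perm.sign_of_cycleType, hn, Multiset.sum_replicate, Multiset.card_replicate,
    smul_eq_mul, show (n + 1) * 2 + (n + 1) = 3 * 63 by omega] at hsign
  rw [Odd.neg_one_pow (by decide)] at hsign
  exact absurd hsign (by decide)

theorem exists_fixed_five {g : permGroup} (hg : orderOf g = 5) :
    ∃ p : Fin 126, (g : Equiv.Perm (Fin 126)) p = p := by
  have : Fact (Nat.Prime 5) := ⟨by norm_num⟩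
  refine Equiv.Perm.exists_fixed_point_of_prime (p := 5) (n := 1) (by simp) ?_
  rw [pow_one, ← hg]
  exact_mod_cast congrArg Subtype.val (pow_orderOf_eq_one g)

/-- In a centraliser of an element of order seven only the identity fixes a point. -/
theorem centralizer_free (hc : Nat.card permGroup = 126000) {x : permGroup} (hx : orderOf x = 7)
    {c : permGroup} (hcx : Commute c x) {p : Fin 126} (hp : (c : Equiv.Perm (Fin 126)) p = p) :
    c = 1 := by
  classical
  by_contra h1
  set σ := (x : Equiv.Perm (Fin 126)) with hσ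
  have hσ7 : orderOf σ = 7 := (Subgroup.orderOf_coe x).trans hx
  have hne : σ p ≠ p := fun h => by
    have hd := Subgroup.orderOf_dvd_natCard (s := MulAction.stabilizer permGroup p)
      (x := x) (show x ∈ MulAction.stabilizer permGroup p from h)
    rw [hx, card_point_stab hc p] at hd
    norm_num at hd
  have hfix : ∀ i : ℕ, (c : Equiv.Perm (Fin 126)) ((σ ^ i) p) = (σ ^ i) p := fun i => by
    have e : (c : Equiv.Perm (Fin 126)) * σ ^ i = σ ^ i * c :=
      congrArg Subtype.val (hcx.pow_right i).eq
    have := congrArg (· p) e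
    simpa [hp] using this
  have hfixed := fixed_le_six hc (Ne.symm hne) c.2 hp
    (by simpa using hfix 1) fun e => h1 (Subtype.ext e)
  have hinj : Set.InjOn (fun i => (σ ^ i) p) (Finset.range 7 : Set ℕ) := by
    intro i hi j hj h
    simp only [Finset.coe_range, Set.mem_Iio] at hi hj
    have key : ∀ i j : ℕ, i < j → j < 7 → (σ ^ i) p ≠ (σ ^ j) p := by
      intro i j hij hj e
      have e' : (σ ^ (j - i)) p = p := by
        apply (σ ^ i).injective
        rw [← Equiv.Perm.mul_apply, ← pow_add, Nat.add_sub_cancel' hij.le, ← e]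
      have hco : (j - i).Coprime 7 := (Nat.Prime.coprime_iff_not_dvd (by norm_num)).2
        (fun hd => by have := Nat.le_of_dvd (by omega) hd; omega) |>.symm
      obtain ⟨m, hm⟩ := exists_pow_eq_self_of_coprime (x := σ) (n := j - i) (by rwa [hσ7])
      exact hne (by rw [← hm]; exact Equiv.Perm.pow_apply_eq_self_of_apply_eq_self e' m)
    rcases lt_trichotomy i j with h' | h' | h'
    · exact absurd h (key i j h' hj)
    · exact h'
    · exact absurd h.symm (key j i h' hi)
  have h7 := Finset.card_le_card_of_injOn (t := Finset.univ.filter fun y =>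
      (c : Equiv.Perm (Fin 126)) y = y) (fun i => (σ ^ i) p)
    (fun i _ => by simp [hfix i]) hinj
  rw [Finset.card_range] at h7
  omega

theorem card_centralizer_dvd (hs : IsSimpleGroup permGroup) (hc : Nat.card permGroup = 126000)
    {x : permGroup} (hx : orderOf x = 7) :
    Nat.card (Subgroup.centralizer ({x} : Set permGroup)) ∣ 63 := by
  set C := Subgroup.centralizer ({x} : Set permGroup)
  have hdvd : Nat.card C ∣ 126000 := hc ▸ C.card_subgroup_dvd_card
  have hno : ∀ l : ℕ, l = 2 ∨ l = 5 → ¬ l ∣ Nat.card C := by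
    intro l hl hd
    have : Fact l.Prime := ⟨by rcases hl with rfl | rfl <;> norm_num⟩
    obtain ⟨⟨c, hcC⟩, ho⟩ := exists_prime_orderOf_dvd_card' l hd
    rw [Subgroup.orderOf_mk] at ho
    have hcx : Commute c x := (Subgroup.mem_centralizer_singleton_iff.1 hcC)
    obtain ⟨p, hp⟩ : ∃ p : Fin 126, (c : Equiv.Perm (Fin 126)) p = p := by
      rcases hl with rfl | rfl
      · exact exists_fixed_of_two hs hc ho
      · exact exists_fixed_five ho
    rw [centralizer_free hc hx hcx hp, orderOf_one] at ho
    omega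
  have key : ∀ d ∈ Nat.divisors 63, d ∣ 63 := fun d hd => (Nat.mem_divisors.1 hd).1
  have h2 : (Nat.card C).Coprime 16 := by
    rw [show (16 : ℕ) = 2 ^ 4 by norm_num]
    exact Nat.Coprime.pow_right _ ((Nat.Prime.coprime_iff_not_dvd Nat.prime_two).2 (hno 2 (Or.inl rfl))).symm
  have h5 : (Nat.card C).Coprime 125 := by
    rw [show (125 : ℕ) = 5 ^ 3 by norm_num]
    exact Nat.Coprime.pow_right _
      ((Nat.Prime.coprime_iff_not_dvd (by norm_num)).2 (hno 5 (Or.inr rfl))).symm
  rw [show (126000 : ℕ) = 63 * (16 * 125) by norm_num] at hdvd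
  exact (Nat.Coprime.mul_right h2 h5).dvd_of_dvd_mul_right hdvd

/-- A Sylow 7-normaliser has order 21. -/
theorem card_normalizer_seven (hs : IsSimpleGroup permGroup) (hc : Nat.card permGroup = 126000)
    (P : Sylow 7 permGroup) :
    Nat.card (Subgroup.normalizer ((P : Subgroup permGroup) : Set permGroup)) = 21 := by
  classical
  have : Fact (Nat.Prime 7) := ⟨by norm_num⟩
  set Q : Subgroup permGroup := (P : Subgroup permGroup) with hQ
  have hQ7 : Nat.card Q = 7 := by
    have hf : (126000 : ℕ).factorization 7 = 1 := by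
      rw [show (126000 : ℕ) = 7 * 18000 by norm_num, Nat.factorization_mul (by norm_num) (by norm_num),
        Finsupp.add_apply, (Nat.Prime.factorization_self (by norm_num : Nat.Prime 7)),
        Nat.factorization_eq_zero_of_not_dvd (by norm_num)]
    rw [hQ, Sylow.card_eq_multiplicity, hc, hf, pow_one]
  have : IsCyclic Q := isCyclic_of_prime_card hQ7
  obtain ⟨⟨x, hxQ⟩, hgen⟩ := IsCyclic.exists_generator (α := Q)
  have hx : orderOf x = 7 := by
    rw [← Subgroup.orderOf_mk x hxQ, orderOf_eq_card_of_forall_mem_zpowers hgen, hQ7]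
  set N := Subgroup.normalizer (Q : Set permGroup)
  have hC : Subgroup.centralizer (Q : Set permGroup) ≤ Subgroup.centralizer {x} :=
    Subgroup.centralizer_le (Set.singleton_subset_iff.2 hxQ)
  have hk : (Subgroup.normalizerMonoidHom Q).ker = (Subgroup.centralizer (Q : Set permGroup)).subgroupOf N :=
    Subgroup.normalizerMonoidHom_ker Q
  have hCN : Subgroup.centralizer (Q : Set permGroup) ≤ N := Subgroup.centralizer_le_normalizer _
  have hprod : Nat.card N = Nat.card (Subgroup.centralizer (Q : Set permGroup)) *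
      Nat.card (Subgroup.normalizerMonoidHom Q).range := by
    rw [← Nat.card_congr (Subgroup.subgroupOfEquivOfLe hCN).toEquiv, ← hk, ← Subgroup.index_ker,
      Subgroup.card_mul_index]
  have h6 : Nat.card (Subgroup.normalizerMonoidHom Q).range ∣ 6 := by
    have h := Subgroup.card_subgroup_dvd_card (Subgroup.normalizerMonoidHom Q).range
    rwa [IsCyclic.card_mulAut, hQ7, show Nat.totient 7 = 6 by decide] at h
  have h378 : Nat.card N ∣ 378 := by
    rw [hprod, show (378 : ℕ) = 63 * 6 by norm_num]
    exact Nat.mul_dvd_mul ((Subgroup.card_dvd_of_le hC).trans (card_centralizer_dvd hs hc hx)) h6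
  have h7N : 7 ∣ Nat.card N := hQ7 ▸ Subgroup.card_dvd_of_le Subgroup.le_normalizer
  have hmod : 126000 / Nat.card N % 7 = 1 := by
    have h := card_sylow_modEq_one 7 permGroup
    rw [Sylow.card_eq_index_normalizer P] at h
    have hi : N.index = 126000 / Nat.card N := by
      rw [← hc, ← N.card_mul_index, Nat.mul_div_cancel_left _ Nat.card_pos]
    rw [← hi]
    exact h
  have hd : Nat.card N ∣ 126000 := hc ▸ N.card_subgroup_dvd_card
  have key : ∀ n ∈ Nat.divisors 378, 7 ∣ n → n ∣ 126000 → 126000 / n % 7 = 1 → n = 21 := by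
    decide +kernel
  exact key _ (Nat.mem_divisors.2 ⟨h378, by norm_num⟩) h7N hd hmod

end CfsgLib.HSUnitary
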