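import Cfsg.Agent.Lib.Mathieu.GraphAut
import Cfsg.Agent.Lib.Leech.Cert.HSUnitary
import Mathlib.GroupTheory.GroupAction.Quotient
import Mathlib.GroupTheory.Index
import Mathlib.GroupTheory.OrderOfElement
import Mathlib.GroupTheory.QuotientGroup.Basic

/-!
A permutation group of degree 126 with at least 126000 elements, and a criterion for a group to be
isomorphic to it.
-/

set_option autoImplicit false

namespace CfsgLib.HSUnitary

open CfsgLib.Mathieu CfsgLib.Mathieu.GraphAut

/-- The permutation with index `k`. -/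
noncomputable def permG (k : ℕ) : Equiv.Perm (Fin 126) := perm7 126 (Data.codes.getD k 0)

/-- The group generated by the two permutations. -/
noncomputable def permGroup : Subgroup (Equiv.Perm (Fin 126)) :=
  Subgroup.closure {permG 0, permG 1}

theorem codes_ok : ∀ c ∈ Data.codes, isPerm7 126 c = true := by decide +kernel

theorem perm_mem : ∀ c ∈ Data.codes, perm7 126 c ∈ permGroup := by
  intro c hc
  refine Subgroup.subset_closure ?_
  simp only [Data.codes, List.mem_cons, List.not_mem_nil, or_false] at hc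
  rcases hc with rfl | rfl
  · exact Or.inl rfl
  · exact Or.inr rfl

theorem permG_mem {k : ℕ} (hk : k < 2) : permG k ∈ permGroup :=
  perm_mem _ (getD_mem hk)

theorem permG_apply {k : ℕ} (hk : k < 2) (x : Fin 126) :
    (permG k x : ℕ) = app7 (Data.codes.getD k 0) x.1 :=
  perm7_apply (codes_ok _ (getD_mem hk)) x

theorem tree_ok : ∀ i < 126, i ≠ 0 → Data.tree.getD i 0 / 2 < i ∧
    app7 (Data.codes.getD (Data.tree.getD i 0 % 2) 0) (Data.tree.getD i 0 / 2) = i := by decide +kernel

theorem exists_move : ∀ (i : ℕ) (hi : i < 126),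
    ∃ g ∈ permGroup, g (0 : Fin 126) = ⟨i, hi⟩ := by
  intro i
  induction i using Nat.strong_induction_on with
  | _ i ih =>
    intro hi
    by_cases h0 : i = 0
    · subst h0; exact ⟨1, one_mem _, rfl⟩
    obtain ⟨h1, h2⟩ := tree_ok i hi h0
    obtain ⟨g, hg, e⟩ := ih _ h1 (h1.trans hi)
    have hk : Data.tree.getD i 0 % 2 < 2 := Nat.mod_lt _ (by norm_num)
    refine ⟨_, mul_mem (permG_mem hk) hg, Fin.ext ?_⟩
    rw [Equiv.Perm.mul_apply, e, permG_apply hk]
    exact h2

theorem words_valid : ∀ w ∈ [Data.wordC, Data.wordD, Data.wordE], wordValid Data.codes w = true := by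
  decide +kernel

theorem words_fix : word7 Data.codes Data.wordC 0 = 0 ∧ word7 Data.codes Data.wordD 0 = 0 ∧
    word7 Data.codes Data.wordE 0 = 0 ∧
    word7 Data.codes Data.wordE (Data.order2.getD 0 0) = Data.order2.getD 0 0 := by
  decide +kernel

theorem order2_ok : Data.order2.length = 125 ∧ (∀ j < 125, Data.order2.getD j 0 < 126) ∧
    (∀ p < 126, p ≠ 0 → p ∈ Data.order2) := by decide +kernel

theorem tree2_ok : ∀ j < 125, j ≠ 0 → Data.tree2.getD j 0 / 2 < j ∧
    word7 Data.codes ([Data.wordC, Data.wordD].getD (Data.tree2.getD j 0 % 2) [])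
      (Data.order2.getD (Data.tree2.getD j 0 / 2) 0) = Data.order2.getD j 0 := by decide +kernel

/-- The element given by a word. -/
noncomputable def wordElt (w : List ℕ) : Equiv.Perm (Fin 126) := wordPerm7 126 Data.codes w

theorem wordElt_mem {w : List ℕ} (h : wordValid Data.codes w = true) : wordElt w ∈ permGroup :=
  wordPerm7_mem perm_mem h

theorem wordElt_apply {w : List ℕ} (h : wordValid Data.codes w = true) (x : Fin 126) :
    (wordElt w x : ℕ) = word7 Data.codes w x.1 :=
  wordPerm7_apply codes_ok h x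

/-- The first point of `order2`. -/
def pointQ : Fin 126 := ⟨Data.order2.getD 0 0, order2_ok.2.1 0 (by norm_num)⟩

theorem exists_move2 : ∀ (j : ℕ) (hj : j < 125), ∃ g ∈ permGroup, g (0 : Fin 126) = 0 ∧
    g pointQ = ⟨Data.order2.getD j 0, order2_ok.2.1 j hj⟩ := by
  intro j
  induction j using Nat.strong_induction_on with
  | _ j ih =>
    intro hj
    by_cases h0 : j = 0
    · subst h0; exact ⟨1, one_mem _, rfl, rfl⟩
    obtain ⟨h1, h2⟩ := tree2_ok j hj h0
    obtain ⟨g, hg, e0, e⟩ := ih _ h1 (h1.trans hj)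
    set w := [Data.wordC, Data.wordD].getD (Data.tree2.getD j 0 % 2) [] with hw
    have hw' : wordValid Data.codes w = true ∧ word7 Data.codes w 0 = 0 := by
      rcases Nat.mod_two_eq_zero_or_one (Data.tree2.getD j 0) with h | h <;> rw [hw, h]
      · exact ⟨words_valid _ (by simp), words_fix.1⟩
      · exact ⟨words_valid _ (by simp), words_fix.2.1⟩
    refine ⟨_, mul_mem (wordElt_mem hw'.1) hg, Fin.ext ?_, Fin.ext ?_⟩
    · rw [Equiv.Perm.mul_apply, e0, wordElt_apply hw'.1]; exact hw'.2
    · rw [Equiv.Perm.mul_apply, e, wordElt_apply hw'.1]; exact h2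

theorem wordE_order : orderOf (wordElt Data.wordE) = 8 := by
  have hv : wordValid Data.codes Data.wordE = true := words_valid _ (by simp)
  have hpow : ∀ (k : ℕ) (x : Fin 126),
      (((wordElt Data.wordE) ^ k) x : ℕ) = (word7 Data.codes Data.wordE)^[k] x.1 := by
    intro k
    induction k with
    | zero => intro x; rfl
    | succ k ih =>
      intro x
      rw [pow_succ', Equiv.Perm.mul_apply, wordElt_apply hv, ih, Function.iterate_succ_apply']
  have h8 : ∀ x < 126, (word7 Data.codes Data.wordE)^[8] x = x := by decide +kernel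
  have h4 : ∃ x < 126, (word7 Data.codes Data.wordE)^[4] x ≠ x := by decide +kernel
  refine orderOf_eq_prime_pow (p := 2) (n := 2) ?_ ?_
  · obtain ⟨x, hx, hne⟩ := h4
    intro e
    have := hpow 4 ⟨x, hx⟩
    rw [show ((2 : ℕ) ^ 2) = 4 by norm_num] at e
    rw [e] at this
    exact hne this.symm
  · refine Equiv.ext fun x => Fin.ext ?_
    rw [show ((2 : ℕ) ^ (2 + 1)) = 8 by norm_num, hpow 8 x]
    exact h8 x.1 x.2

theorem le_card_permGroup : 126000 ≤ Nat.card permGroup := by
  classical
  have key := (MulAction.stabilizer permGroup (0 : Fin 126)).card_mul_index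
  rw [MulAction.index_stabilizer] at key
  have horb : (MulAction.orbit permGroup (0 : Fin 126)).ncard = 126 := by
    rw [show MulAction.orbit permGroup (0 : Fin 126) = Set.univ from Set.eq_univ_of_forall fun i => by
      obtain ⟨g, hg, e⟩ := exists_move i.1 i.2
      exact ⟨⟨g, hg⟩, e⟩, Set.ncard_univ, Nat.card_fin]
  set S := MulAction.stabilizer permGroup (0 : Fin 126)
  have key2 := (MulAction.stabilizer S pointQ).card_mul_index
  rw [MulAction.index_stabilizer] at key2
  have horb2 : 125 ≤ (MulAction.orbit S pointQ).ncard := by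
    have hsub : {i : Fin 126 | i ≠ 0} ⊆ MulAction.orbit S pointQ := by
      intro i hi
      have hi' : i.1 ≠ 0 := fun h => hi (Fin.ext h)
      obtain ⟨j, hj, e⟩ := List.getElem_of_mem (order2_ok.2.2 i.1 i.2 hi')
      obtain ⟨g, hg, e0, e1⟩ := exists_move2 j (order2_ok.1 ▸ hj)
      refine ⟨⟨⟨g, hg⟩, e0⟩, ?_⟩
      refine e1.trans (Fin.ext ?_)
      show Data.order2.getD j 0 = i.1
      rw [List.getD_eq_getElem _ _ hj, e]
    refine le_trans ?_ (Set.ncard_le_ncard hsub (Set.toFinite _))
    rw [show {i : Fin 126 | i ≠ 0} = ({0} : Set (Fin 126))ᶜ from rfl, Set.ncard_compl,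
      Set.ncard_singleton, Nat.card_fin]
  have hfix := words_fix
  have hv : wordValid Data.codes Data.wordE = true := words_valid _ (by simp)
  let e1 : S := ⟨⟨wordElt Data.wordE, wordElt_mem hv⟩,
    Fin.ext ((wordElt_apply hv 0).trans hfix.2.2.1)⟩
  let e2 : MulAction.stabilizer S pointQ :=
    ⟨e1, Fin.ext ((wordElt_apply hv pointQ).trans hfix.2.2.2)⟩
  have h8 : 8 ≤ Nat.card (MulAction.stabilizer S pointQ) := by
    refine le_of_eq_of_le ?_ (orderOf_le_card (x := e2))
    rw [← Subgroup.orderOf_coe, ← Subgroup.orderOf_coe, ← Subgroup.orderOf_coe]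
    exact wordE_order.symm
  have hS : 1000 ≤ Nat.card S := key2 ▸ le_trans (by norm_num) (Nat.mul_le_mul h8 horb2)
  rw [← key, horb]
  omega

/-- A group acting on 126 objects like the two permutations is isomorphic to `permGroup`. -/
theorem nonempty_equiv_permGroup {G X : Type*} [Group G] [Finite G] (act : G → X → X)
    (act_one : ∀ x, act 1 x = x) (act_mul : ∀ g h x, act (g * h) x = act g (act h x))
    {P : Fin 126 → X} (hP : Function.Injective P) {a b : G}
    (ha : ∀ i, act a (P i) = P (permG 0 i)) (hb : ∀ i, act b (P i) = P (permG 1 i))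
    (N : Subgroup G) [N.Normal] (hN : ∀ z ∈ N, ∀ i, act z (P i) = P i)
    (hG : Nat.card (G ⧸ N) = 126000) : Nonempty (G ⧸ N ≃* permGroup) := by
  classical
  let S : Subgroup G :=
    { carrier := {g | ∃ σ : Equiv.Perm (Fin 126), ∀ i, act g (P i) = P (σ i)}
      one_mem' := ⟨1, fun i => act_one _⟩
      mul_mem' := by
        rintro g h ⟨σ, hσ⟩ ⟨τ, hτ⟩
        exact ⟨σ * τ, fun i => by rw [act_mul, hτ, hσ]; rfl⟩
      inv_mem' := by
        rintro g ⟨σ, hσ⟩
        refine ⟨σ⁻¹, fun i => ?_⟩
        have h := hσ (σ⁻¹ i)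
        rw [← Equiv.Perm.mul_apply, mul_inv_cancel, Equiv.Perm.one_apply] at h
        rw [← h, ← act_mul, inv_mul_cancel, act_one] }
  have huniq : ∀ (g : S) (σ : Equiv.Perm (Fin 126)), (∀ i, act g.1 (P i) = P (σ i)) →
      g.2.choose = σ := fun g σ h =>
    Equiv.ext fun i => hP ((g.2.choose_spec i).symm.trans (h i))
  let φ : S →* Equiv.Perm (Fin 126) := MonoidHom.mk' (fun g => g.2.choose) fun g h =>
    huniq _ _ fun i => by
      rw [Subgroup.coe_mul, act_mul, h.2.choose_spec, g.2.choose_spec]; rfl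
  have haS : a ∈ S := ⟨_, ha⟩
  have hbS : b ∈ S := ⟨_, hb⟩
  have hle : permGroup ≤ φ.range := by
    rw [permGroup, Subgroup.closure_le]
    intro σ hσ
    rcases hσ with h | h
    · exact ⟨⟨a, haS⟩, (huniq ⟨a, haS⟩ _ ha).trans h.symm⟩
    · exact ⟨⟨b, hbS⟩, (huniq ⟨b, hbS⟩ _ hb).trans (Set.mem_singleton_iff.1 h).symm⟩
  have hNS : N ≤ S := fun z hz => ⟨1, hN z hz⟩
  have hNker : N.subgroupOf S ≤ φ.ker := fun z hz => huniq z 1 (hN z.1 hz)
  have hcard : Nat.card G = 126000 * Nat.card N := by
    rw [N.card_eq_card_quotient_mul_card_subgroup, hG]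
  have hSG : Nat.card S ≤ Nat.card G := Nat.card_le_card_of_injective _ S.subtype_injective
  have hkN : Nat.card N ≤ Nat.card φ.ker := by
    rw [← Nat.card_congr (Subgroup.subgroupOfEquivOfLe hNS).toEquiv]
    exact Subgroup.card_le_of_le hNker
  have hprod : Nat.card φ.range * Nat.card φ.ker = Nat.card S := by
    rw [← Subgroup.index_ker, mul_comm]; exact φ.ker.card_mul_index
  have hr : 126000 ≤ Nat.card φ.range := le_card_permGroup.trans (Subgroup.card_le_of_le hle)
  have hN0 : 0 < Nat.card N := Nat.card_pos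
  have hge : Nat.card G ≤ Nat.card S := by
    rw [hcard, ← hprod]; exact Nat.mul_le_mul hr hkN
  have htop : S = ⊤ := Subgroup.eq_top_of_card_eq S (le_antisymm hSG hge)
  have hprod' : Nat.card φ.range * Nat.card φ.ker = 126000 * Nat.card N := by
    rw [hprod, le_antisymm hSG hge, hcard]
  have hrange : φ.range = permGroup := by
    refine (Subgroup.eq_of_le_of_card_ge hle ?_).symm
    refine le_trans ?_ le_card_permGroup
    refine Nat.le_of_mul_le_mul_right ?_ hN0
    exact (Nat.mul_le_mul_left _ hkN).trans hprod'.le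
  have hker : φ.ker = N.subgroupOf S := by
    refine (Subgroup.eq_of_le_of_card_ge hNker ?_).symm
    rw [Nat.card_congr (Subgroup.subgroupOfEquivOfLe hNS).toEquiv]
    refine Nat.le_of_mul_le_mul_left ?_ (by norm_num : 0 < 126000)
    exact (Nat.mul_le_mul_right _ hr).trans hprod'.le
  let e : G ≃* S := ((MulEquiv.subgroupCongr htop).trans Subgroup.topEquiv).symm
  let ψ : G →* Equiv.Perm (Fin 126) := φ.comp e.toMonoidHom
  have hψr : ψ.range = permGroup := by
    rw [MonoidHom.range_comp, MonoidHom.range_eq_top.2 e.surjective, ← MonoidHom.range_eq_map, hrange]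
  have hψk : ψ.ker = N := by
    ext g
    rw [MonoidHom.mem_ker, show ψ g = φ (e g) from rfl, ← MonoidHom.mem_ker, hker,
      Subgroup.mem_subgroupOf]
    rfl
  exact ⟨(QuotientGroup.quotientMulEquivOfEq hψk.symm).trans
    ((QuotientGroup.quotientKerEquivRange ψ).trans (MulEquiv.subgroupCongr hψr))⟩

end CfsgLib.HSUnitary
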