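import Cfsg.Agent.Lib.HSUnitary.Perm
import Cfsg.Agent.Lib.ClassicalForms.Unitary.Center

/-!
`PSU(3,5)` is isomorphic to the permutation group of degree 126: the two checked matrices permute the
126 isotropic points in the same way.
-/

set_option autoImplicit false

namespace CfsgLib.HSUnitary

open Matrix CfsgLib.ClassicalForms CfsgLib.Mathieu CfsgLib.Mathieu.GraphAut

/-- Coordinates of the field with 25 elements over the prime field, the second at a square root of two. -/
abbrev K5 : Type := ZMod 5 × ZMod 5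

/-- The product. -/
def kMul (x y : K5) : K5 := (x.1 * y.1 + 2 * x.2 * y.2, x.1 * y.2 + x.2 * y.1)

/-- The fifth power. -/
def kConj (x : K5) : K5 := (x.1, -x.2)

/-- A stored entry. -/
def toK (p : ℕ × ℕ) : K5 := ((p.1 : ZMod 5), (p.2 : ZMod 5))

/-- The two stored matrices. -/
def kMat (k : ℕ) (i j : Fin 3) : K5 :=
  toK ((([Data.uA, Data.uB].getD k []).getD i []).getD j (0, 0))

/-- A stored point. -/
def kVec (i : ℕ) (j : Fin 3) : K5 := toK ((Data.pts.getD i []).getD j (0, 0))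

/-- The image of a vector under a matrix. -/
def kMulVec (M : Fin 3 → Fin 3 → K5) (v : Fin 3 → K5) (i : Fin 3) : K5 :=
  kMul (M i 0) (v 0) + kMul (M i 1) (v 1) + kMul (M i 2) (v 2)

/-- The entries of the Gram matrix of the columns. -/
def kGram (M : Fin 3 → Fin 3 → K5) (i j : Fin 3) : K5 :=
  kMul (M 0 i) (kConj (M 0 j)) + kMul (M 1 i) (kConj (M 1 j)) + kMul (M 2 i) (kConj (M 2 j))

/-- The determinant. -/
def kDet (M : Fin 3 → Fin 3 → K5) : K5 :=
  kMul (kMul (M 0 0) (M 1 1)) (M 2 2) - kMul (kMul (M 0 0) (M 1 2)) (M 2 1) -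
    kMul (kMul (M 0 1) (M 1 0)) (M 2 2) + kMul (kMul (M 0 1) (M 1 2)) (M 2 0) +
    kMul (kMul (M 0 2) (M 1 0)) (M 2 1) - kMul (kMul (M 0 2) (M 1 1)) (M 2 0)

/-- A code for a stored point. -/
def vecCode (i : ℕ) : ℕ :=
  ((((kVec i 0).1.val * 5 + (kVec i 0).2.val) * 5 + (kVec i 1).1.val) * 5 + (kVec i 1).2.val) * 25 +
    (kVec i 2).1.val * 5 + (kVec i 2).2.val

theorem gram_ok : ∀ k < 2, ∀ i j : Fin 3, kGram (kMat k) i j = if i = j then (1, 0) else (0, 0) := by
  decide +kernel

theorem det_ok : ∀ k < 2, kDet (kMat k) = (1, 0) := by decide +kernel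

theorem step_ok : ∀ k < 2, ∀ i < 126, ∃ c : K5, c ≠ (0, 0) ∧
    ∀ r : Fin 3, kMulVec (kMat k) (kVec i) r = kMul c (kVec (app7 (Data.codes.getD k 0) i) r) := by
  decide +kernel

theorem normal_ok : ∀ i < 126, kVec i 0 = (1, 0) ∨ (kVec i 0 = (0, 0) ∧ kVec i 1 = (1, 0)) ∨
    (kVec i 0 = (0, 0) ∧ kVec i 1 = (0, 0) ∧ kVec i 2 = (1, 0)) := by
  decide +kernel

theorem vecs_nodup : ((List.range 126).map vecCode).Nodup := by decide +kernel

theorem quad_ok : ∀ a b : ZMod 5, a * a = 2 * (b * b) → a = 0 ∧ b = 0 := by decide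

variable {F : Type*} [Field F] [CharP F 5] {s : F}

/-- The field element with given coordinates. -/
def ev (s : F) (x : K5) : F :=
  ZMod.castHom (dvd_refl 5) F x.1 + ZMod.castHom (dvd_refl 5) F x.2 * s

theorem ev_add (x y : K5) : ev s (x + y) = ev s x + ev s y := by
  simp only [ev, Prod.fst_add, Prod.snd_add, map_add]; ring

theorem ev_sub (x y : K5) : ev s (x - y) = ev s x - ev s y := by
  simp only [ev, Prod.fst_sub, Prod.snd_sub, map_sub]; ring

theorem ev_zero : ev s ((0, 0) : K5) = 0 := by simp [ev]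

theorem ev_one : ev s ((1, 0) : K5) = 1 := by simp [ev]

theorem ev_mul (hs : s * s = 2) (x y : K5) : ev s (kMul x y) = ev s x * ev s y := by
  simp only [ev, kMul, map_add, map_mul, map_ofNat]
  linear_combination -(ZMod.castHom (dvd_refl 5) F x.2 * ZMod.castHom (dvd_refl 5) F y.2) * hs

theorem ev_conj (hs : s * s = 2) (x : K5) : ev s (kConj x) = ev s x ^ 5 := by
  have hc : ∀ a : ZMod 5, (ZMod.castHom (dvd_refl 5) F a) ^ 5 = ZMod.castHom (dvd_refl 5) F a :=
    fun a => by
      have : Fact (Nat.Prime 5) := ⟨by norm_num⟩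
      rw [← map_pow, ZMod.pow_card]
  have h5 : (5 : F) = 0 := by
    have := CharP.cast_eq_zero F 5
    exact_mod_cast this
  have : Fact (Nat.Prime 5) := ⟨by norm_num⟩
  simp only [ev, kConj, map_neg, add_pow_char, mul_pow, hc]
  linear_combination (-(ZMod.castHom (dvd_refl 5) F x.2) * s * (s * s + 2)) * hs -
    (ZMod.castHom (dvd_refl 5) F x.2) * s * h5

theorem ev_eq_zero (hs : s * s = 2) {x : K5} (h : ev s x = 0) : x = (0, 0) := by
  have : Fact (Nat.Prime 5) := ⟨by norm_num⟩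
  set φ := ZMod.castHom (dvd_refl 5) F with hφ
  have h' : φ x.1 + φ x.2 * s = 0 := h
  have e : x.1 * x.1 = 2 * (x.2 * x.2) := φ.injective (by
    rw [map_mul, map_mul, map_mul, map_ofNat]
    linear_combination (φ x.1 - φ x.2 * s) * h' + (φ x.2 * φ x.2) * hs)
  obtain ⟨h1, h2⟩ := quad_ok _ _ e
  exact Prod.ext h1 h2

/-- A stored matrix over the field. -/
def fMat (s : F) (k : ℕ) : Matrix (Fin 3) (Fin 3) F := Matrix.of fun i j => ev s (kMat k i j)

/-- A stored point over the field. -/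
def fVec (s : F) (i : ℕ) : Fin 3 → F := fun j => ev s (kVec i j)

theorem fMat_det (hs : s * s = 2) {k : ℕ} (hk : k < 2) : (fMat s k).det = 1 := by
  have h := congrArg (ev s) (det_ok k hk)
  simp only [kDet, ev_add, ev_sub, ev_mul hs, ev_one] at h
  rw [Matrix.det_fin_three]
  exact h

theorem fMat_herm (hs : s * s = 2) {k : ℕ} (hk : k < 2) (u v : Fin 3 → F) :
    Cfsg.hermForm 3 F 5 (fMat s k *ᵥ u) (fMat s k *ᵥ v) = Cfsg.hermForm 3 F 5 u v := by
  have : Fact (Nat.Prime 5) := ⟨by norm_num⟩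
  have g : ∀ i j : Fin 3, fMat s k 0 i * fMat s k 0 j ^ 5 + fMat s k 1 i * fMat s k 1 j ^ 5 +
      fMat s k 2 i * fMat s k 2 j ^ 5 = if i = j then 1 else 0 := fun i j => by
    have h := congrArg (ev s) (gram_ok k hk i j)
    rw [apply_ite (ev s), ev_one, ev_zero] at h
    simp only [kGram, ev_add, ev_mul hs, ev_conj hs] at h
    exact h
  have g00 := g 0 0
  have g01 := g 0 1
  have g02 := g 0 2
  have g10 := g 1 0
  have g11 := g 1 1
  have g12 := g 1 2
  have g20 := g 2 0
  have g21 := g 2 1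
  have g22 := g 2 2
  simp only [Fin.isValue, if_true] at g00 g11 g22
  rw [if_neg (by decide)] at g01 g02 g10 g12 g20 g21
  simp only [Cfsg.hermForm, Fin.sum_univ_three, Matrix.mulVec, dotProduct, add_pow_char, mul_pow]
  linear_combination (u 0 * v 0 ^ 5) * g00 + (u 0 * v 1 ^ 5) * g01 + (u 0 * v 2 ^ 5) * g02 +
    (u 1 * v 0 ^ 5) * g10 + (u 1 * v 1 ^ 5) * g11 + (u 1 * v 2 ^ 5) * g12 +
    (u 2 * v 0 ^ 5) * g20 + (u 2 * v 1 ^ 5) * g21 + (u 2 * v 2 ^ 5) * g22

/-- A stored matrix as an element of the special unitary group. -/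
def suGen (hs : s * s = 2) (k : ℕ) (hk : k < 2) : Cfsg.SU 3 F 5 :=
  ⟨⟨fMat s k, fMat_det hs hk⟩, fMat_herm hs hk⟩

/-- The line through a stored point. -/
def fPoint (s : F) (i : Fin 126) : Submodule F (Fin 3 → F) := Submodule.span F {fVec s i.1}

theorem fPoint_injective (hs : s * s = 2) : Function.Injective (fPoint s) := by
  intro i j h
  have hmem : fVec s i.1 ∈ fPoint s j := h ▸ Submodule.subset_span rfl
  obtain ⟨c, hc⟩ := Submodule.mem_span_singleton.1 hmem
  have hN : ∀ n < 126, fVec s n 0 = 1 ∨ (fVec s n 0 = 0 ∧ fVec s n 1 = 1) ∨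
      (fVec s n 0 = 0 ∧ fVec s n 1 = 0 ∧ fVec s n 2 = 1) := fun n hn => by
    rcases normal_ok n hn with a | ⟨a, b⟩ | ⟨a, b, d⟩
    · exact Or.inl (by rw [fVec, a, ev_one])
    · exact Or.inr (Or.inl ⟨by rw [fVec, a, ev_zero], by rw [fVec, b, ev_one]⟩)
    · exact Or.inr (Or.inr ⟨by rw [fVec, a, ev_zero], by rw [fVec, b, ev_zero], by rw [fVec, d, ev_one]⟩)
  have e0 := congrFun hc 0
  have e1 := congrFun hc 1
  have e2 := congrFun hc 2
  simp only [Pi.smul_apply, smul_eq_mul] at e0 e1 e2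
  have hc1 : c = 1 := by
    rcases hN i.1 i.2 with a | ⟨a, b⟩ | ⟨a, b, d⟩ <;>
      rcases hN j.1 j.2 with a' | ⟨a', b'⟩ | ⟨a', b', d'⟩ <;> simp_all
  rw [hc1, one_smul] at hc
  have hk : kVec j.1 = kVec i.1 := funext fun r => by
    have e := sub_eq_zero.2 (congrFun hc r)
    simp only [fVec, ← ev_sub] at e
    exact sub_eq_zero.1 (ev_eq_zero hs e)
  exact Fin.ext (List.inj_on_of_nodup_map vecs_nodup (List.mem_range.2 i.2) (List.mem_range.2 j.2) (by
    simp only [vecCode, hk]))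

theorem suGen_point (hs : s * s = 2) {k : ℕ} (hk : k < 2) (i : Fin 126) :
    (fPoint s i).map (fMat s k).mulVecLin = fPoint s (permG k i) := by
  obtain ⟨c, hc, h⟩ := step_ok k hk i.1 i.2
  have e : fMat s k *ᵥ fVec s i.1 = ev s c • fVec s (permG k i : ℕ) := funext fun r => by
    have h' := congrArg (ev s) (h r)
    simp only [kMulVec, ev_add, ev_mul hs] at h'
    rw [permG_apply hk]
    simp only [Matrix.mulVec, dotProduct, Fin.sum_univ_three, Pi.smul_apply, smul_eq_mul]
    exact h'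
  rw [fPoint, Submodule.map_span, Set.image_singleton, Matrix.mulVecLin_apply, e]
  exact Submodule.span_singleton_smul_eq (isUnit_iff_ne_zero.2 fun h0 => hc (ev_eq_zero hs h0)) _

omit [CharP F 5] in
theorem card_psu35 [Finite F] (hF : Nat.card F = 25) : Nat.card (Cfsg.PSU 3 F 5) = 126000 := by
  have h := card_psu_mul (q := 5) (n := 3) (hF.trans (by norm_num)) (by norm_num)
  rw [card_gu (q := 5) (hF.trans (by norm_num))] at h
  simp [Finset.prod_range_succ, Nat.even_iff] at h
  omega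

omit [CharP F 5] in
/-- `PSU(3,5)` is isomorphic to the permutation group. -/
theorem nonempty_psu_equiv_permGroup [Fintype F] (hF : Fintype.card F = 25) :
    Nonempty (Cfsg.PSU 3 F 5 ≃* permGroup) := by
  have hp : CharP F 5 := by
    obtain ⟨p, hp⟩ := CharP.exists F
    obtain ⟨n, hpr, hn⟩ := FiniteField.card F p
    have hdvd : p ∣ 5 ^ 2 := by
      rw [show (5 : ℕ) ^ 2 = 25 by norm_num, ← hF, hn]; exact dvd_pow_self p n.ne_zero
    rw [← (Nat.prime_dvd_prime_iff_eq hpr (by norm_num)).1 (hpr.dvd_of_dvd_pow hdvd)]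
    exact hp
  have hring : ringChar F = 5 := ringChar.eq F 5
  obtain ⟨s, hs⟩ : IsSquare (2 : F) := by
    have h2 : (2 : F) ≠ 0 := by
      intro h
      have := (CharP.cast_eq_zero_iff F 5 2).1 (by exact_mod_cast h)
      norm_num at this
    rw [FiniteField.isSquare_iff (by rw [hring]; norm_num) h2, hF]
    have h5 : (5 : F) = 0 := by exact_mod_cast CharP.cast_eq_zero F 5
    norm_num
    linear_combination (819 : F) * h5
  have hs' : s * s = 2 := hs.symm
  have hF' : Nat.card F = 25 := by rw [Nat.card_eq_fintype_card, hF]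
  refine nonempty_equiv_permGroup (G := Cfsg.SU 3 F 5)
    (fun g L => L.map (g.1.1 : Matrix (Fin 3) (Fin 3) F).mulVecLin) (fun L => ?_) (fun g h L => ?_)
    (fPoint_injective hs') (a := suGen hs' 0 (by norm_num)) (b := suGen hs' 1 (by norm_num))
    (fun i => suGen_point hs' (by norm_num) i) (fun i => suGen_point hs' (by norm_num) i)
    (Subgroup.center _) (fun z hz i => ?_) (card_psu35 hF')
  · show L.map (1 : Matrix (Fin 3) (Fin 3) F).mulVecLin = L
    rw [Matrix.mulVecLin_one, Submodule.map_id]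
  · show L.map ((g.1.1 : Matrix (Fin 3) (Fin 3) F) * h.1.1).mulVecLin = _
    rw [Matrix.mulVecLin_mul, Submodule.map_comp]
  · obtain ⟨a, ha⟩ := exists_scalar_of_commute_su (q := 5) (n := 3) (hF'.trans (by norm_num))
      (by norm_num) (suToGU z) fun t ht => by
        rw [← suToGU_suOfGU t ht]
        exact (Commute.map (Subgroup.mem_center_iff.1 hz (suOfGU t ht)).symm suToGU)
    have ha0 : a ≠ 0 := fun h => CfsgLib.Geometric.ap_ne_zero (suToGU z : GL (Fin 3) F)
      (show (Pi.single 0 (1 : F) : Fin 3 → F) ≠ 0 from fun e => by simpa using congrFun e 0)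
      (by rw [ha, h, zero_smul])
    show (fPoint s i).map _ = _
    rw [fPoint, Submodule.map_span, Set.image_singleton, Matrix.mulVecLin_apply]
    rw [show (z.1.1 : Matrix (Fin 3) (Fin 3) F) *ᵥ fVec s i.1 = a • fVec s i.1 from ha _]
    exact Submodule.span_singleton_smul_eq (isUnit_iff_ne_zero.2 ha0) _

end CfsgLib.HSUnitary
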